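import Mathlib
import Cfsg.Agent.Lib.Helper16.P2pStmt

set_option autoImplicit false

namespace Cfsg.Agent.Lib.Helper49.P2CNT

open Cfsg.Agent.Lib.Helper16.P2pStmt MulAction Subgroup

universe u

theorem conj_zpow' {G : Type u} [Group G] (a b : G) (k : ℤ) :
    (a⁻¹ * b * a) ^ k = a⁻¹ * b ^ k * a := by
  have h := conj_zpow (a := a⁻¹) (b := b) (i := k)
  simpa using h

theorem mem_normalizer_aux {G : Type u} [Group G] (P : Subgroup G)
    (hgen : ∀ x ∈ P, x ≠ 1 → ∀ h ∈ P, ∃ k : ℤ, x ^ k = h)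
    (n x x₀ : G) (hx : x ∈ P) (hx1 : x ≠ 1) (hx₀ : x₀ ∈ P) (hx₀1 : x₀ ≠ 1)
    (hn : n * x * n⁻¹ = x₀) : n ∈ normalizer (P : Set G) := by
  have hn' : n⁻¹ * x₀ * n = x := by rw [← hn]; group
  rw [Subgroup.mem_normalizer_iff]
  intro h
  constructor
  · intro hh
    obtain ⟨k, hk⟩ := hgen x hx hx1 h hh
    have h1 : n * h * n⁻¹ = x₀ ^ k := by
      rw [← hk, ← hn, conj_zpow]
    rw [h1]
    exact P.zpow_mem hx₀ k
  · intro hh
    obtain ⟨k, hk⟩ := hgen x₀ hx₀ hx₀1 _ hh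
    have h1 : h = x ^ k := by
      calc h = n⁻¹ * (n * h * n⁻¹) * n := by group
        _ = n⁻¹ * x₀ ^ k * n := by rw [hk]
        _ = (n⁻¹ * x₀ * n) ^ k := (conj_zpow' n x₀ k).symm
        _ = x ^ k := by rw [hn']
    rw [h1]
    exact P.zpow_mem hx k

/-- [CNT] the number of non-trivial elements conjugate into `P`. -/
theorem main : Cnt.{u} := by
  intro G _ _ P p hp hP hN
  classical
  have := Fintype.ofFinite G
  haveI : Fact p.Prime := ⟨hp⟩
  have hgen : ∀ x ∈ P, x ≠ 1 → ∀ h ∈ P, ∃ k : ℤ, x ^ k = h := by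
    intro x hx hx1 h hh
    have hz : Subgroup.zpowers (⟨x, hx⟩ : P) = ⊤ :=
      zpowers_eq_top_of_prime_card hP (by
        intro h0
        exact hx1 (congrArg Subtype.val h0))
    have hmem : (⟨h, hh⟩ : P) ∈ Subgroup.zpowers (⟨x, hx⟩ : P) := by
      rw [hz]; trivial
    obtain ⟨k, hk⟩ := Subgroup.mem_zpowers_iff.mp hmem
    refine ⟨k, ?_⟩
    have := congrArg Subtype.val hk
    simpa using this
  let Pfin : Finset G := Finset.univ.filter (fun x => x ∈ P ∧ x ≠ 1)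
  let Nfin : Finset G := Finset.univ.filter (fun x => x ∈ normalizer (P : Set G))
  let A : Finset G := Finset.univ.filter (fun g => g ≠ 1 ∧ ∃ u : G, u⁻¹ * g * u ∈ P)
  have hPmem : ∀ x, x ∈ Pfin ↔ (x ∈ P ∧ x ≠ 1) := by
    intro x; simp [Pfin]
  have hNmem : ∀ x, x ∈ Nfin ↔ x ∈ normalizer (P : Set G) := by
    intro x; simp [Nfin]
  have hAmem : ∀ g, g ∈ A ↔ (g ≠ 1 ∧ ∃ u : G, u⁻¹ * g * u ∈ P) := by
    intro g; simp [A]
  have hNcard : Nfin.card = p * 2 := by
    rw [← hN, Nat.card_eq_fintype_card, Fintype.card_subtype]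
  have hPcard : Pfin.card = p - 1 := by
    have h1 : Pfin = (Finset.univ.filter (fun x => x ∈ P)).erase 1 := by
      ext x
      rw [hPmem, Finset.mem_erase, Finset.mem_filter]
      simp [and_comm]
    rw [h1, Finset.card_erase_of_mem (by simp [P.one_mem]), ← hP, Nat.card_eq_fintype_card,
      Fintype.card_subtype]
  have hAcard : Nat.card {g : G // g ≠ 1 ∧ ∃ u : G, u⁻¹ * g * u ∈ P} = A.card := by
    rw [Nat.card_eq_fintype_card, Fintype.card_subtype]
  let s : Finset (G × G) := Finset.univ ×ˢ Pfin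
  let f : G × G → G := fun q => q.1 * q.2 * q.1⁻¹
  have hsmem : ∀ q : G × G, q ∈ s → (q.2 ∈ P ∧ q.2 ≠ 1) := by
    intro q hq
    exact (hPmem q.2).mp (Finset.mem_product.mp hq).2
  have hscard : s.card = Nat.card G * (p - 1) := by
    rw [Finset.card_product, Finset.card_univ, hPcard, Nat.card_eq_fintype_card]
  have himg : s.image f ⊆ A := by
    intro g hg
    obtain ⟨q, hq, rfl⟩ := Finset.mem_image.mp hg
    have hq2 := hsmem q hq
    rw [hAmem]
    refine ⟨?_, q.1, ?_⟩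
    · intro h1
      apply hq2.2
      have h2 : q.2 = q.1⁻¹ * (q.1 * q.2 * q.1⁻¹) * q.1 := by group
      have h3 : f q = q.1 * q.2 * q.1⁻¹ := rfl
      rw [h2, ← h3, h1]; group
    · have h2 : q.1⁻¹ * f q * q.1 = q.2 := by
        show q.1⁻¹ * (q.1 * q.2 * q.1⁻¹) * q.1 = q.2
        group
      rw [h2]; exact hq2.1
  have hfib : ∀ a ∈ s.image f, (s.filter (fun q => f q = a)).card ≤ p * 2 := by
    intro a ha
    obtain ⟨q₀, hq₀, hq₀a⟩ := Finset.mem_image.mp ha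
    have hq₀2 := hsmem q₀ hq₀
    rw [← hNcard]
    apply Finset.card_le_card_of_injOn (fun q => q₀.1⁻¹ * q.1)
    · intro q hq
      have hq' := Finset.mem_filter.mp (Finset.mem_coe.mp hq)
      have hq2 := hsmem q hq'.1
      have hfa : q.1 * q.2 * q.1⁻¹ = q₀.1 * q₀.2 * q₀.1⁻¹ := hq'.2.trans hq₀a.symm
      have hn : (q₀.1⁻¹ * q.1) * q.2 * (q₀.1⁻¹ * q.1)⁻¹ = q₀.2 := by
        have h1 : (q₀.1⁻¹ * q.1) * q.2 * (q₀.1⁻¹ * q.1)⁻¹
            = q₀.1⁻¹ * (q.1 * q.2 * q.1⁻¹) * q₀.1 := by group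
        rw [h1, hfa]; group
      rw [Finset.mem_coe, hNmem]
      exact mem_normalizer_aux P hgen _ _ _ hq2.1 hq2.2 hq₀2.1 hq₀2.2 hn
    · intro q hq q' hq' heq
      have hq1 := Finset.mem_filter.mp (Finset.mem_coe.mp hq)
      have hq1' := Finset.mem_filter.mp (Finset.mem_coe.mp hq')
      have h1 : q.1 = q'.1 := mul_left_cancel heq
      have h2 : q.2 = q'.2 := by
        have e1 : q.1 * q.2 * q.1⁻¹ = q'.1 * q'.2 * q'.1⁻¹ := hq1.2.trans hq1'.2.symm
        rw [← h1] at e1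
        exact mul_left_cancel (mul_right_cancel e1)
      exact Prod.ext h1 h2
  have h1 := Finset.card_le_mul_card_image s (p * 2) hfib
  have h2 : (s.image f).card ≤ A.card := Finset.card_le_card himg
  rw [hAcard]
  calc (p - 1) * Nat.card G = s.card := by rw [hscard]; ring
    _ ≤ p * 2 * (s.image f).card := h1
    _ ≤ p * 2 * A.card := Nat.mul_le_mul_left _ h2
    _ = 2 * p * A.card := by ring

end Cfsg.Agent.Lib.Helper49.P2CNT
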