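import Mathlib
import Cfsg.Agent.Lib.Helper16.P2pStmt

set_option autoImplicit false

namespace Cfsg.Agent.Lib.Helper49.P2MOM

open Cfsg.Agent.Lib.Helper16.P2pStmt

universe u

/-- [MOM] the moment argument. -/
theorem main : Mom.{u} := by
  intro G _ _ p hp c hc1 hle hmax hcnt hs1 hs2 hs3
  classical
  set N : ℤ := (Nat.card G : ℤ) with hN
  set S : Finset G := Finset.univ.filter (fun g => c g = -1) with hS
  set S' : Finset G := Finset.univ.filter (fun g => ¬ c g = -1) with hS'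
  have hcardS : (Nat.card {g : G // c g = -1} : ℤ) = (S.card : ℤ) := by
    rw [Nat.card_eq_fintype_card, Fintype.card_subtype]
  rw [hcardS] at hcnt
  have hp' : (5 : ℤ) ≤ p := by exact_mod_cast hp
  let F : G → ℤ := fun g => c g * (c g - 1) * (c g - ((p : ℤ) - 1))
  have hFsum : ∑ g, F g = -(((p : ℤ) - 1) * N) := by
    have hF : ∀ g, F g = c g ^ 3 - (p : ℤ) * c g ^ 2 + ((p : ℤ) - 1) * c g := by
      intro g; simp only [F]; ring
    simp only [hF]
    rw [Finset.sum_add_distrib, Finset.sum_sub_distrib, ← Finset.mul_sum, ← Finset.mul_sum,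
      hs1, hs2, hs3]
    ring
  have hFle : ∀ g, F g ≤ 0 := by
    intro g
    have h1 : 0 ≤ c g * (c g - 1) := by
      rcases le_or_gt (c g) 0 with h | h
      · nlinarith
      · nlinarith
    have h2 : c g - ((p : ℤ) - 1) ≤ 0 := by linarith [hle g]
    exact mul_nonpos_of_nonneg_of_nonpos h1 h2
  have hFS : ∀ g ∈ S, F g = -(2 * (p : ℤ)) := by
    intro g hg
    have hg' : c g = -1 := (Finset.mem_filter.mp hg).2
    simp only [F, hg']; ring
  have hsplit : ∑ g, F g = ∑ g ∈ S, F g + ∑ g ∈ S', F g := by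
    rw [hS, hS', Finset.sum_filter_add_sum_filter_not]
  have hSsum : ∑ g ∈ S, F g = -(2 * (p : ℤ)) * S.card := by
    rw [Finset.sum_congr rfl hFS, Finset.sum_const, nsmul_eq_mul]; ring
  have hrest : ∑ g ∈ S', F g = 0 := by
    have h1 : ∑ g ∈ S', F g ≤ 0 := Finset.sum_nonpos (fun g _ => hFle g)
    have h2 : ∑ g ∈ S', F g = -(((p : ℤ) - 1) * N) + 2 * (p : ℤ) * S.card := by
      have h3 := hFsum
      rw [hsplit, hSsum] at h3
      linarith
    linarith
  have heq : 2 * (p : ℤ) * S.card = ((p : ℤ) - 1) * N := by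
    have h3 := hFsum
    rw [hsplit, hSsum, hrest] at h3
    linarith
  have hzero : ∀ g ∈ S', F g = 0 :=
    (Finset.sum_eq_zero_iff_of_nonpos (fun g _ => hFle g)).mp hrest
  have hval : ∀ g ∈ S',
      c g ^ 2 - c g = if g = 1 then ((p : ℤ) - 1) * ((p : ℤ) - 2) else 0 := by
    intro g hg
    have h0 := hzero g hg
    simp only [F] at h0
    rcases mul_eq_zero.mp h0 with h | h
    · rcases mul_eq_zero.mp h with h | h
      · have hne : g ≠ 1 := by
          rintro rfl
          rw [hc1] at h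
          linarith
        rw [if_neg hne, h]; ring
      · have hc : c g = 1 := by linarith
        have hne : g ≠ 1 := by
          rintro rfl
          rw [hc1] at hc
          linarith
        rw [if_neg hne, hc]; ring
    · have hc : c g = (p : ℤ) - 1 := by linarith
      have hg1 := hmax g hc
      rw [if_pos hg1, hc]; ring
  have h1S' : (1 : G) ∈ S' := by
    rw [hS', Finset.mem_filter]
    refine ⟨Finset.mem_univ _, ?_⟩
    rw [hc1]
    intro h
    linarith
  have hsq : ∑ g, (c g ^ 2 - c g) = N := by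
    rw [Finset.sum_sub_distrib, hs1, hs2]; ring
  have hA : ∑ g ∈ S, (c g ^ 2 - c g) = 2 * S.card := by
    have h2 : ∀ g ∈ S, c g ^ 2 - c g = 2 := by
      intro g hg
      have hg' : c g = -1 := (Finset.mem_filter.mp hg).2
      rw [hg']; ring
    rw [Finset.sum_congr rfl h2, Finset.sum_const, nsmul_eq_mul]; ring
  have hB : ∑ g ∈ S', (c g ^ 2 - c g) = ((p : ℤ) - 1) * ((p : ℤ) - 2) := by
    rw [Finset.sum_congr rfl hval, Finset.sum_ite_eq' S' 1, if_pos h1S']
  have hsq2 : ∑ g, (c g ^ 2 - c g) = 2 * S.card + ((p : ℤ) - 1) * ((p : ℤ) - 2) := by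
    rw [← Finset.sum_filter_add_sum_filter_not Finset.univ (fun g => c g = -1), ← hS, ← hS',
      hA, hB]
  have h3 : N = 2 * S.card + ((p : ℤ) - 1) * ((p : ℤ) - 2) := by rw [← hsq, hsq2]
  have h4 : (p : ℤ) * N
      = 2 * (p : ℤ) * S.card + (p : ℤ) * (((p : ℤ) - 1) * ((p : ℤ) - 2)) := by
    have h5 : (p : ℤ) * N = (p : ℤ) * (2 * S.card + ((p : ℤ) - 1) * ((p : ℤ) - 2)) :=
      congrArg (fun z : ℤ => (p : ℤ) * z) h3
    rw [h5]; ring
  have hfinal : N = (p : ℤ) * ((p : ℤ) - 1) * ((p : ℤ) - 2) := by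
    rw [heq] at h4
    linarith
  have hcast : ((p * (p - 1) * (p - 2) : ℕ) : ℤ)
      = (p : ℤ) * ((p : ℤ) - 1) * ((p : ℤ) - 2) := by
    rw [Nat.cast_mul, Nat.cast_mul, Nat.cast_sub (by omega), Nat.cast_sub (by omega)]
    norm_num
  have hfin2 : (Nat.card G : ℤ) = ((p * (p - 1) * (p - 2) : ℕ) : ℤ) := hfinal.trans hcast.symm
  exact_mod_cast hfin2

end Cfsg.Agent.Lib.Helper49.P2MOM
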