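import Mathlib
import Cfsg.Agent.Lib.Helper16.P2pStmt
import Cfsg.Agent.S0157

set_option autoImplicit false

namespace Cfsg.Agent.Lib.Helper49.P2TWOTR

open Cfsg.Agent.Lib.Helper16.P2pStmt MulAction Subgroup

universe u w

/-- [TWOTR] a transitive action with `∑ fix² = 2 |G|` is doubly transitive. -/
theorem main : TwoTr.{u, w} := by
  intro G _ _ X _ _ htr hsum
  classical
  have hG : 0 < Nat.card G := Nat.card_pos
  have hX : 2 ≤ Nat.card X := by
    by_contra hlt
    have hlt' : Nat.card X ≤ 1 := by omega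
    have hle : ∀ g : G, Nat.card (fixedBy X g) ^ 2 ≤ 1 := by
      intro g
      have h1 : Nat.card (fixedBy X g) ≤ Nat.card X :=
        Nat.card_le_card_of_injective _ Subtype.val_injective
      have h2 : Nat.card (fixedBy X g) ≤ 1 := by omega
      calc Nat.card (fixedBy X g) ^ 2 ≤ 1 ^ 2 := Nat.pow_le_pow_left h2 2
        _ = 1 := by norm_num
    have h3 : ∑ g : G, Nat.card (fixedBy X g) ^ 2 ≤ ∑ _g : G, 1 :=
      Finset.sum_le_sum (fun g _ => hle g)
    rw [hsum, Finset.sum_const, Finset.card_univ, smul_eq_mul, mul_one,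
      ← Nat.card_eq_fintype_card] at h3
    omega
  rw [← Cfsg.Agent.S0157.card_orbits_pairs_eq_two_iff hX]
  have h1 := Cfsg.Agent.S0157.sum_permChar (G := G) (X := X × X)
  have h2 : ∑ g : G, Cfsg.Agent.S0157.permChar G (X × X) g = ((2 * Nat.card G : ℕ) : ℂ) := by
    rw [← hsum]
    push_cast
    apply Finset.sum_congr rfl
    intro g _
    rw [Cfsg.Agent.S0157.permChar_prod]
    unfold Cfsg.Agent.S0157.permChar
    ring
  rw [h2] at h1
  have h3 : 2 * Nat.card G = Nat.card (Quotient (orbitRel G (X × X))) * Nat.card G := by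
    exact_mod_cast h1
  exact (Nat.eq_of_mul_eq_mul_right hG h3).symm

end Cfsg.Agent.Lib.Helper49.P2TWOTR
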