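import Mathlib
import Cfsg.Prelude.Def_OddOrderLocal

set_option autoImplicit false

/-!
# S1382 ((Type III or Type IV) iff K ≠ 1, U = 1, M_F ≠ M_σ): statements of the pieces

Plan: helper93, board post 8348.  Setting: `G` minimal simple of odd order, `M` maximal,
`M = K U M_σ` a sigma-decomposition.  For `K ≠ ⊥`, `U = ⊥`:
`⁅M, M⁆ = sigmaCore M` (`(Cfsg.Agent.S1365.result hG M hM K U hKU hK1).1`, then `U = ⊥`,
`bot_sup_eq`).  Type-P data used for the converse: `W₁ := K`,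
`W₂ := sigmaCore M ⊓ centralizer K`, `U_t := D` a `K`-invariant complement of `M_F` in `M_σ`.
The assembly (helper49) takes the fields `H_not_cyclic` (S1364), `derived_two_le`, `fitting_eq`,
`fitting_le` (S1356), `W₂_le` (S1364, S1365), `W₂_centralizer` (S1430), `D ≠ ⊥`, and
`|K|` prime, `F(M)` TI (S1357).
-/

namespace Cfsg.Agent.Lib.Helper49.S82Stmt

universe u

/-- [FWD] (M) the forward direction.  From `IsOfTypeIII M` or `IsOfTypeIV M` get data
`hP : IsTypePWith M W₁ Ut W₂`, `Ut ≠ ⊥`, `(Nat.card W₁).Prime`, `normalizer Ut ≤ M`.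
`K ≠ ⊥`: `Cfsg.Agent.Lib.Helper93.S89KNE34.main hG M hM W₁ Ut W₂ K U hP hpr hKU`.
`U = ⊥`: `Cfsg.Agent.Lib.Helper20.S89UBOT34.main hG M hM W₁ Ut W₂ K U hP hN hKU hK1`.
`M_F ≠ M_σ`: `⁅M, M⁆ = sigmaCore M` (S1365, see the header); `hP.U_compl :
IsComplIn (fittingHallOf M) Ut ⁅M, M⁆`; if `fittingHallOf M = sigmaCore M` then
`Ut ≤ fittingHallOf M ⊓ Ut = ⊥`. -/
def Fwd : Prop :=
  ∀ {G : Type u} [Group G] [Finite G], Cfsg.IsMinSimpleOddOrder G →
  ∀ (M K U : Subgroup G), IsCoatom M → Cfsg.IsSigmaDecomposition M K U →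
    (Cfsg.IsOfTypeIII M ∨ Cfsg.IsOfTypeIV M) →
    K ≠ ⊥ ∧ U = ⊥ ∧ Cfsg.fittingHallOf M ≠ Cfsg.sigmaCore M

/-- [COMPLD] (M-L) a `K`-invariant complement `D` of `M_F` in `M_σ`.  COPY-EDIT of the landed
`Cfsg.Agent.Lib.Helper53.S56HALLD` (also Helper77 / Helper60) with `fittingHall ↥M` in place of
`Oq`: `fittingHall ↥M` is normal in `↥M` with order prime to its index
(`Cfsg.Agent.Lib.Helper17.S64FHHALL.main` or the sSup definition), so it has a complement `T₀` in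
`↥M` (`Subgroup.exists_right_complement'_of_coprime`); `↥M` is solvable
(`Cfsg.Agent.Lib.Helper9.BG10a.isSolvable_of_ne_top hG hM.1`); `|K|` is prime to `|M_σ|`
(`hKU.hall`, `Cfsg.Agent.Lib.Helper9.BG11b.mem_sigma_of_dvd`, `κ ∩ σ = ∅`) hence to `|M_F|`
(`fittingHallOf M ≤ sigmaCore M`: `(Cfsg.Agent.S1355.result hG M hM).2.1`); so `K.subgroupOf M ≤ T`
for a conjugate `T` of `T₀` (Hall in solvable groups, e.g.
`Cfsg.Agent.Lib.Helper73.NilHallFusion.hall_conj_sub`, `Cfsg.Agent.Lib.Helper51.EqC2.hall_conj_sub`).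
`D := (T.map M.subtype) ⊓ sigmaCore M`. -/
def ComplD : Prop :=
  ∀ {G : Type u} [Group G] [Finite G], Cfsg.IsMinSimpleOddOrder G →
  ∀ (M K U : Subgroup G), IsCoatom M → Cfsg.IsSigmaDecomposition M K U → K ≠ ⊥ → U = ⊥ →
    ∃ D : Subgroup G, Cfsg.IsComplIn (Cfsg.fittingHallOf M) D (Cfsg.sigmaCore M) ∧
      K ≤ Subgroup.normalizer (D : Set G)

/-- [DNIL] (M) every complement `D` of `M_F` in `M_σ` is nilpotent.
`(Cfsg.Agent.S1355.result hG M hM).2.2.2.2 : Group.IsNilpotent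
↥((commutator ↥M).map (QuotientGroup.mk' (fittingHall ↥M)))` and `.2.2.1 : sigmaCore M ≤ ⁅M, M⁆`,
`⁅M, M⁆ = (commutator ↥M).map M.subtype` (first lines of
`Cfsg.Agent.Lib.Helper73.S55COMMEQ.main`).  The map `d ↦ mk' ⟨d, _⟩` from `↥D` to that image is
an injective homomorphism (`D ⊓ fittingHallOf M = ⊥`, `fittingHallOf M = (fittingHall ↥M).map
M.subtype` by definition), so `↥D` is nilpotent (`MonoidHom.ofInjective`, `Subgroup.isNilpotent`,
`nilpotent_of_mulEquiv` or the way `Helper65.S55QUOTNIL` transports nilpotency). -/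
def DNil : Prop :=
  ∀ {G : Type u} [Group G] [Finite G], Cfsg.IsMinSimpleOddOrder G →
  ∀ (M D : Subgroup G), IsCoatom M →
    Cfsg.IsComplIn (Cfsg.fittingHallOf M) D (Cfsg.sigmaCore M) → Group.IsNilpotent ↥D

/-- [W1DATA] (M) `K` is a Hall subgroup of `M` complementing `M_σ` when `U = ⊥`.
Coprime: `hKU.hall : IsPiHallOf (kappa M) K M` (a prime dividing both `|K|` and `K.relIndex M` is
in `kappa M` and does not divide `K.relIndex M`).  Complement: `hKU.compl : IsComplIn U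
(K ⊔ sigmaCore M) M` with `U = ⊥` gives `M ≤ K ⊔ sigmaCore M`; `sigmaCore M` is normalized by `M`
(`Cfsg.Agent.Lib.Helper9.BG11b.sigmaCore_normal M`), so every `m ∈ M` is `s * k`
(`Cfsg.Agent.Lib.Helper31.SigBasic.mem_sup_of_le_normalizer` or `Subgroup.mul_normal`-style);
`sigmaCore M ⊓ K = ⊥`: coprime orders (`Cfsg.Agent.Lib.Helper9.BG11b.mem_sigma_of_dvd`, primes of
`|K|` are in `kappa M`, hence not in `sigma M`), or the `cop` field of
`Cfsg.Agent.Lib.Helper93.S64GLUEA.main`. -/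
def W1Data : Prop :=
  ∀ {G : Type u} [Group G] [Finite G], Cfsg.IsMinSimpleOddOrder G →
  ∀ (M K U : Subgroup G), IsCoatom M → Cfsg.IsSigmaDecomposition M K U → K ≠ ⊥ → U = ⊥ →
    (Nat.card ↥K).Coprime (K.relIndex M) ∧ Cfsg.IsComplIn (Cfsg.sigmaCore M) K M

/-- [SELFN] (M) `K` and `K* = M_σ ∩ C(K)` form a self-normalizing cyclic pair.
`(Cfsg.Agent.S1364.result hG M hM K U hKU hK1).2.1 : K* ≠ ⊥`; `K ⊓ K* = ⊥` (coprime orders as in
W1DATA, or `K* ≤ sigmaCore M`); commuting: `K* ≤ centralizer K`; cyclic: the existence of `M*`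
(`Cfsg.Agent.S1366.result` / `Cfsg.Agent.S1379.result`) and `(Cfsg.Agent.S1368.result ..).2`, or
directly: `K`, `K*` cyclic (`hKU.cyclic`, S1364 first clause) of coprime orders commuting
elementwise.  Normalizers: `(Cfsg.Agent.S1370.result hG M hM K U hKU hK1)` gives `Ẑ` TI with
`normalizer Ẑ = K ⊔ K*`; for `X ⊆ Ẑ` nonempty: `g ∈ normalizer X`, `x ∈ X` gives
`g * x * g⁻¹ ∈ Ẑ`, `x ≠ 1` (as `1 ∈ K`), so `g ∈ normalizer Ẑ` by TI (contrapositive);
conversely `K ⊔ K*` is commutative and contains `X`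
(`Cfsg.Agent.Lib.Helper25.CycTI1.mem_setNormalizer`). -/
def SelfN : Prop :=
  ∀ {G : Type u} [Group G] [Finite G], Cfsg.IsMinSimpleOddOrder G →
  ∀ (M K U : Subgroup G), IsCoatom M → Cfsg.IsSigmaDecomposition M K U → K ≠ ⊥ →
    Cfsg.IsSelfNormalizingCyclic K (Cfsg.sigmaCore M ⊓ Subgroup.centralizer (K : Set G))

/-- [NDLE] (M-L) `N_G(D) ≤ M` for a nontrivial nilpotent complement `D` of `M_F` in `M_σ`.
`p` a prime dividing `|D|`, `P` the Sylow `p`-subgroup of `D` (normal, hence characteristic in `D`,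
as `D` is nilpotent: `(Group.isNilpotent_of_finite_tfae.out 0 3).mp`), so
`normalizer D ≤ normalizer P`.  `|D| = |M_σ : M_F|` is prime to `|M_F|`
(`fittingHall ↥M` has order prime to its index: `Cfsg.Agent.Lib.Helper17.S64FHHALL.main`), so
`p ∤ |M_F|` and `P` is a Sylow `p`-subgroup of `sigmaCore M` (`|M_σ| = |M_F| * |D|`);
`Cfsg.Agent.Lib.Helper47.S89NSIG.main hG M hM p hp P' hP'` (`NSig` of
`Cfsg.Agent.Lib.Helper62.S89Stmt`) gives `normalizer P ≤ M`. -/
def NDLe : Prop :=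
  ∀ {G : Type u} [Group G] [Finite G], Cfsg.IsMinSimpleOddOrder G →
  ∀ (M D : Subgroup G), IsCoatom M → D ≠ ⊥ → Group.IsNilpotent ↥D →
    Cfsg.IsComplIn (Cfsg.fittingHallOf M) D (Cfsg.sigmaCore M) →
    Subgroup.normalizer (D : Set G) ≤ M

end Cfsg.Agent.Lib.Helper49.S82Stmt
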