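import Mathlib
import Cfsg.Agent.Lib.Helper73.BG143Stmt

/-! S1432 piece PRIMES. -/

set_option autoImplicit false

namespace Cfsg.Agent.Lib.Helper49.BG143PRIMES

open Cfsg.Agent.Lib.Helper73

universe u

theorem main : BG143Stmt.R2.{u} → BG143Stmt.MemKappa.{u} → BG143Stmt.Primes.{u} := by
  intro hR2 hMK G _ _ hG M hM x z t hx hx1 hz hzx hzo ht htσ
  by_cases h1 : Cfsg.PRankLE t 1 M
  · exact Or.inl (hMK hG M t z x ht htσ h1 hz hzo hx hx1 hzx)
  · exact Or.inr ⟨ht, htσ, hR2 hG M hM t ht htσ, h1⟩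

end Cfsg.Agent.Lib.Helper49.BG143PRIMES
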