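import Mathlib
import Cfsg.Prelude.Def_Blocks
import Cfsg.Agent.Lib.CT.Orth
import Cfsg.Agent.Lib.CT.Clifford
import Cfsg.Agent.Lib.CT.Kernel

set_option autoImplicit false

namespace Cfsg.Agent.Lib.Helper49.BrR3

open Cfsg Cfsg.Agent.Lib.CT.Wedderburn Cfsg.Agent.Lib.CT.Orth Cfsg.Agent.Lib.CT.Clifford
open scoped ComplexConjugate

universe u
variable {G : Type u} [Group G]

/-- [R3] An irreducible constituent has degree at most that of the character. -/
theorem degree_le_of_constituent [Fintype G] (χ : G → ℂ) (hχ : IsCharacter G χ)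
    (ξ : IrrCharacter G) (h : classInner χ (ξ : G → ℂ) ≠ 0) :
    charDegree (ξ : G → ℂ) ≤ charDegree χ := by
  classical
  have := finite_irrCharacter G
  have := Fintype.ofFinite (IrrCharacter G)
  have hexp := classFunction_expand_sum χ (char_isClassFunction hχ) 1
  have hterm : ∀ ψ : IrrCharacter G, ∃ k : ℕ,
      classInner χ (ψ : G → ℂ) * (ψ : G → ℂ) 1 = k := by
    intro ψ
    obtain ⟨m, hm⟩ := classInner_char_nat hχ (isCharacter_of_irr ψ.2)
    obtain ⟨n, hn⟩ := char_exists_apply_one (isCharacter_of_irr ψ.2)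
    exact ⟨m * n, by rw [hm, hn]; push_cast; ring⟩
  choose k hk using hterm
  obtain ⟨m, hm⟩ := classInner_char_nat hχ (isCharacter_of_irr ξ.2)
  obtain ⟨n, hn⟩ := char_exists_apply_one (isCharacter_of_irr ξ.2)
  have hm0 : m ≠ 0 := by
    rintro rfl
    exact h (by simpa using hm)
  have hχ1 : χ 1 = ((∑ ψ, k ψ : ℕ) : ℂ) := by
    rw [hexp]; push_cast; exact Finset.sum_congr rfl (fun ψ _ => hk ψ)
  rw [charDegree_eq_of_apply_one hn, charDegree_eq_of_apply_one hχ1]
  have hkξ : k ξ = m * n := by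
    have := hk ξ
    rw [hm, hn] at this
    exact_mod_cast this.symm
  calc n ≤ m * n := Nat.le_mul_of_pos_left n (Nat.pos_of_ne_zero hm0)
    _ = k ξ := hkξ.symm
    _ ≤ ∑ ψ, k ψ := Finset.single_le_sum (fun _ _ => Nat.zero_le _) (Finset.mem_univ ξ)

/-- [R2] An element lying in the centre of every irreducible constituent of a faithful
character is central. -/
theorem comm_of_constituents [Fintype G] (χ : G → ℂ) (hχ : IsCharacter G χ)
    (hfaith : ∀ g : G, χ g = χ 1 → g = 1) (x : G)
    (hx : ∀ ξ : IrrCharacter G, classInner χ (ξ : G → ℂ) ≠ 0 →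
      ‖(ξ : G → ℂ) x‖ = ((ξ : G → ℂ) 1).re) :
    ∀ g : G, x * g = g * x := by
  classical
  have := finite_irrCharacter G
  have := Fintype.ofFinite (IrrCharacter G)
  intro g
  have hc : χ (x * g * x⁻¹ * g⁻¹) = χ 1 := by
    rw [classFunction_expand_sum χ (char_isClassFunction hχ) (x * g * x⁻¹ * g⁻¹),
      classFunction_expand_sum χ (char_isClassFunction hχ) 1]
    apply Finset.sum_congr rfl
    intro ψ _
    by_cases h0 : classInner χ (ψ : G → ℂ) = 0
    · rw [h0, zero_mul, zero_mul]
    · rw [Cfsg.Agent.Lib.CT.Kernel.commutator_of_norm_eq (isCharacter_of_irr ψ.2) (hx ψ h0) g]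
  have h1 := hfaith _ hc
  have h2 : x * g * x⁻¹ = g := by
    have := mul_inv_eq_one.mp h1
    exact this
  calc x * g = x * g * x⁻¹ * x := by group
    _ = g * x := by rw [h2]

end Cfsg.Agent.Lib.Helper49.BrR3
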