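import Mathlib
import Cfsg.Prelude.Def_Blocks

set_option autoImplicit false

namespace Cfsg.Agent.Lib.Helper49.BrR5

universe u
variable {G : Type u} [Group G]

/-- [R5] A Sylow subgroup commuting elementwise with its normal closure is normal. -/
theorem normal_of_central_in_normalClosure [Finite G] (p : ℕ) [Fact p.Prime] (P : Sylow p G)
    (h : ∀ u : G, u ∈ (P : Subgroup G) → ∀ l : G,
      l ∈ Subgroup.normalClosure ((P : Subgroup G) : Set G) → u * l = l * u) :
    (P : Subgroup G).Normal := by
  have hle : (P : Subgroup G) ≤ Subgroup.normalClosure ((P : Subgroup G) : Set G) :=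
    Subgroup.le_normalClosure
  have hQn : ((P.subtype hle : Sylow p ↥(Subgroup.normalClosure ((P : Subgroup G) : Set G))) :
      Subgroup ↥(Subgroup.normalClosure ((P : Subgroup G) : Set G))).Normal := by
    constructor
    intro x hx l
    have hx' : (x : G) ∈ (P : Subgroup G) := by
      simpa [Sylow.coe_subtype, Subgroup.mem_subgroupOf] using hx
    have hxl : l * x * l⁻¹ = x := by
      have h1 := h x hx' l l.2
      apply Subtype.ext
      simp only [Subgroup.coe_mul, Subgroup.coe_inv]
      rw [← h1]; group
    rw [hxl]; exact hx
  have hchar : ((P.subtype hle : Sylow p ↥(Subgroup.normalClosure ((P : Subgroup G) : Set G))) :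
      Subgroup ↥(Subgroup.normalClosure ((P : Subgroup G) : Set G))).Characteristic :=
    Sylow.characteristic_of_normal _ hQn
  have hn := ConjAct.normal_of_characteristic_of_normal
    (H := Subgroup.normalClosure ((P : Subgroup G) : Set G))
    (K := ((P.subtype hle : Sylow p ↥(Subgroup.normalClosure ((P : Subgroup G) : Set G))) :
      Subgroup ↥(Subgroup.normalClosure ((P : Subgroup G) : Set G))))
  have hmap : ((P.subtype hle : Sylow p ↥(Subgroup.normalClosure ((P : Subgroup G) : Set G))) :
      Subgroup ↥(Subgroup.normalClosure ((P : Subgroup G) : Set G))).map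
        (Subgroup.normalClosure ((P : Subgroup G) : Set G)).subtype = (P : Subgroup G) := by
    rw [Sylow.coe_subtype, Subgroup.subgroupOf_map_subtype]
    exact inf_eq_left.mpr hle
  rw [← hmap]; exact hn

end Cfsg.Agent.Lib.Helper49.BrR5
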