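import Mathlib
import Cfsg.Prelude.Def_CaseTheorems
import Cfsg.Agent.Lib.Helper47.Syl
import Cfsg.Agent.H32.PGroup
import Cfsg.Agent.S0058

/-! A four-group `U` normal in a Sylow 2-subgroup `P` of a group of characteristic 2 type
(central in `P` when `Z(P)` is not cyclic) lies in `O₂(C_G(a))` for each of its involutions `a`,
and hence centralizes every subgroup of odd order that it normalizes. -/

set_option autoImplicit false
set_option linter.unusedVariables false

namespace Cfsg.Agent.Lib.Helper49.FourOdd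

open Cfsg Cfsg.Agent.Lib.Helper47.Syl

variable {G : Type*} [Group G]

theorem le_normalizer_of_conj {H D : Subgroup G} (h : ∀ g ∈ H, ∀ n ∈ D, g * n * g⁻¹ ∈ D) :
    H ≤ Subgroup.normalizer (D : Set G) := by
  intro g hg
  rw [Subgroup.mem_normalizer_iff]
  intro n
  constructor
  · exact h g hg n
  · intro hn
    have := h g⁻¹ (H.inv_mem hg) _ hn
    have e : g⁻¹ * (g * n * g⁻¹) * g⁻¹⁻¹ = n := by group
    rwa [e] at this

theorem mem_zpowers_invol {a x : G} (ha2 : a * a = 1) (hx : x ∈ Subgroup.zpowers a) :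
    x = 1 ∨ x = a := by
  obtain ⟨k, rfl⟩ := Subgroup.mem_zpowers_iff.mp hx
  have h1 : a ^ k = a ^ (k % 2) := by
    conv_lhs => rw [← Int.mul_ediv_add_emod k 2]
    rw [zpow_add, zpow_mul, zpow_two, ha2, one_zpow, one_mul]
  rcases Int.emod_two_eq_zero_or_one k with h | h
  · left; rw [h1, h, zpow_zero]
  · right; rw [h1, h, zpow_one]

theorem eq_of_sq_cyclic {Z : Type*} [Group Z] [Finite Z] [IsCyclic Z] {e z : Z}
    (he : e * e = 1) (hz : z * z = 1) (hz1 : z ≠ 1) : e = 1 ∨ e = z := by
  classical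
  haveI := Fintype.ofFinite Z
  by_contra hcon
  push_neg at hcon
  have h := IsCyclic.card_pow_eq_one_le (α := Z) (n := 2) (by norm_num)
  have hsub : ({1, z, e} : Finset Z) ⊆ Finset.univ.filter (fun a : Z => a ^ 2 = 1) := by
    intro t ht
    simp only [Finset.mem_insert, Finset.mem_singleton] at ht
    simp only [Finset.mem_filter, Finset.mem_univ, true_and]
    rcases ht with rfl | rfl | rfl
    · simp
    · rw [pow_two]; exact hz
    · rw [pow_two]; exact he
  have hc : ({1, z, e} : Finset Z).card = 3 := by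
    rw [Finset.card_insert_of_notMem, Finset.card_insert_of_notMem, Finset.card_singleton]
    · simp only [Finset.mem_singleton]
      exact fun h => hcon.2 h.symm
    · simp only [Finset.mem_insert, Finset.mem_singleton, not_or]
      exact ⟨fun h => hz1 h.symm, fun h => hcon.1 h.symm⟩
  have := Finset.card_le_card hsub
  omega

/-- the characteristic 2 hypothesis for a 2-local subgroup, in the ambient group -/
theorem hchar_of_char2 (h2 : Cfsg.IsCharacteristicTwoType G) {X : Subgroup G}
    (hX2 : IsPGroup 2 X) (hX1 : X ≠ ⊥) :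
    ∀ c ∈ Subgroup.normalizer (X : Set G),
      c ∈ Subgroup.centralizer (pCoreOf 2 (Subgroup.normalizer (X : Set G)) : Set G) →
      c ∈ pCoreOf 2 (Subgroup.normalizer (X : Set G)) := by
  intro c hcN hc
  have hchar := h2.2 X hX2 hX1
  have h1 : (⟨c, hcN⟩ : ↥(Subgroup.normalizer (X : Set G))) ∈
      Subgroup.centralizer (Cfsg.pCore 2 ↥(Subgroup.normalizer (X : Set G)) : Set _) := by
    rw [Subgroup.mem_centralizer_iff]
    intro n hn
    apply Subtype.ext
    have hn' : (n : G) ∈ Cfsg.pCoreOf 2 (Subgroup.normalizer (X : Set G)) :=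
      (mem_pCoreOf_iff n.2).mpr hn
    exact (Subgroup.mem_centralizer_iff.mp hc) _ hn'
  exact (mem_pCoreOf_iff hcN).mpr (hchar h1)

/-- central case: `a ∈ U` central in `H`, `U` of order 4 normal in a Sylow 2-subgroup of `H`,
`C_H(O₂(H)) ≤ O₂(H)`: then `U ≤ O₂(H)`. -/
theorem le_pCoreOf_of_central [Finite G] {H P' U : Subgroup G} {a : G}
    (hchar : ∀ c ∈ H, c ∈ Subgroup.centralizer (pCoreOf 2 H : Set G) → c ∈ pCoreOf 2 H)
    (haH : ∀ h ∈ H, h * a = a * h) (ha2 : a * a = 1) (ha1 : a ≠ 1) (haU : a ∈ U)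
    (hSyl : IsSyl 2 P' H) (hUP : U ≤ P') (hUn : P' ≤ Subgroup.normalizer (U : Set G))
    (hU4 : Nat.card U = 4) : U ≤ pCoreOf 2 H := by
  haveI : Fact (Nat.Prime 2) := ⟨Nat.prime_two⟩
  by_contra hUQ
  have hQP : pCoreOf 2 H ≤ P' := hSyl.pCoreOf_le
  have hUH : U ≤ H := hUP.trans hSyl.1
  have haHm : a ∈ H := hUH haU
  have hord : orderOf a = 2 := orderOf_eq_prime (by rw [pow_two]; exact ha2) ha1
  have hcen : ∀ c ∈ Subgroup.zpowers a, ∀ h ∈ H, h * c = c * h := by
    intro c hc h hh
    rcases mem_zpowers_invol ha2 hc with rfl | rfl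
    · simp
    · exact haH h hh
  have hsq : ∀ c ∈ Subgroup.zpowers a, c * c = 1 := by
    intro c hc
    rcases mem_zpowers_invol ha2 hc with rfl | rfl
    · simp
    · exact ha2
  have hzQ : Subgroup.zpowers a ≤ pCoreOf 2 H := by
    apply le_pCoreOf
    · rw [Subgroup.zpowers_le]; exact haHm
    · apply le_normalizer_of_conj
      intro g hg n hn
      have : g * n * g⁻¹ = n := by
        rw [hcen n hn g hg]; group
      rw [this]; exact hn
    · exact IsPGroup.of_card (n := 1) (by rw [Nat.card_zpowers, hord]; rfl)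
  -- `U ∩ Q = ⟨a⟩`
  have hW : U ⊓ pCoreOf 2 H ≤ Subgroup.zpowers a := by
    have h1 : Nat.card ↥(U ⊓ pCoreOf 2 H) ∣ 4 := by
      rw [← hU4]; exact Subgroup.card_dvd_of_le inf_le_left
    have h2 : Nat.card ↥(U ⊓ pCoreOf 2 H) ≠ 4 := by
      intro h
      apply hUQ
      have := Subgroup.eq_of_le_of_card_ge (inf_le_left : U ⊓ pCoreOf 2 H ≤ U) (by rw [h, hU4])
      rw [← this]; exact inf_le_right
    have h3 : Nat.card ↥(U ⊓ pCoreOf 2 H) ≤ 2 := by
      have h4 : Nat.card ↥(U ⊓ pCoreOf 2 H) ∣ 2 ^ 2 := by norm_num; exact h1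
      obtain ⟨m, hm, hm'⟩ := (Nat.dvd_prime_pow Nat.prime_two).mp h4
      rw [hm'] at h2 ⊢
      interval_cases m
      · norm_num
      · norm_num
      · exact absurd rfl h2
    have h5 : Subgroup.zpowers a ≤ U ⊓ pCoreOf 2 H :=
      le_inf (by rw [Subgroup.zpowers_le]; exact haU) hzQ
    have h6 := Subgroup.eq_of_le_of_card_ge h5 (by rw [Nat.card_zpowers, hord]; exact h3)
    rw [h6]
  -- the centralizer of `Q / ⟨a⟩`
  let D : Subgroup G :=
    { carrier := {h | h ∈ H ∧ ∀ q ∈ pCoreOf 2 H, h * q * h⁻¹ * q⁻¹ ∈ Subgroup.zpowers a}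
      one_mem' := ⟨H.one_mem, fun q _ => by simp⟩
      mul_mem' := by
        rintro h₁ h₂ ⟨hh₁, hq₁⟩ ⟨hh₂, hq₂⟩
        refine ⟨H.mul_mem hh₁ hh₂, fun q hq => ?_⟩
        have e : h₁ * h₂ * q * (h₁ * h₂)⁻¹ * q⁻¹ =
            h₁ * (h₂ * q * h₂⁻¹ * q⁻¹) * h₁⁻¹ * (h₁ * q * h₁⁻¹ * q⁻¹) := by group
        rw [e]
        have c2 := hq₂ q hq
        have e2 : h₁ * (h₂ * q * h₂⁻¹ * q⁻¹) * h₁⁻¹ = h₂ * q * h₂⁻¹ * q⁻¹ := by
          rw [hcen _ c2 h₁ hh₁]; group
        rw [e2]
        exact Subgroup.mul_mem _ c2 (hq₁ q hq)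
      inv_mem' := by
        rintro h ⟨hh, hq⟩
        refine ⟨H.inv_mem hh, fun q hqQ => ?_⟩
        have hq' : h⁻¹ * q * h ∈ pCoreOf 2 H :=
          conj_mem_of_mem_normalizer' (le_normalizer_pCoreOf 2 H hh) hqQ
        have e : h⁻¹ * q * h⁻¹⁻¹ * q⁻¹ =
            (h * (h⁻¹ * q * h) * h⁻¹ * (h⁻¹ * q * h)⁻¹)⁻¹ := by group
        rw [e]
        exact Subgroup.inv_mem _ (hq _ hq') }
  have hDmem : ∀ h, h ∈ D ↔ h ∈ H ∧ ∀ q ∈ pCoreOf 2 H, h * q * h⁻¹ * q⁻¹ ∈ Subgroup.zpowers a :=
    fun h => Iff.rfl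
  have hDH : D ≤ H := fun h hh => ((hDmem h).mp hh).1
  have hDn : H ≤ Subgroup.normalizer (D : Set G) := by
    apply le_normalizer_of_conj
    intro g hg n hn
    obtain ⟨hnH, hnq⟩ := (hDmem n).mp hn
    rw [hDmem]
    refine ⟨H.mul_mem (H.mul_mem hg hnH) (H.inv_mem hg), fun q hq => ?_⟩
    have hq' : g⁻¹ * q * g ∈ pCoreOf 2 H :=
      conj_mem_of_mem_normalizer' (le_normalizer_pCoreOf 2 H hg) hq
    have e : g * n * g⁻¹ * q * (g * n * g⁻¹)⁻¹ * q⁻¹ =
        g * (n * (g⁻¹ * q * g) * n⁻¹ * (g⁻¹ * q * g)⁻¹) * g⁻¹ := by group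
    rw [e]
    have c := hnq _ hq'
    have e2 : g * (n * (g⁻¹ * q * g) * n⁻¹ * (g⁻¹ * q * g)⁻¹) * g⁻¹ =
        n * (g⁻¹ * q * g) * n⁻¹ * (g⁻¹ * q * g)⁻¹ := by
      rw [hcen _ c g hg]; group
    rw [e2]; exact c
  have hD2 : IsPGroup 2 D := by
    rintro ⟨h, hh⟩
    obtain ⟨hhH, hhq⟩ := (hDmem h).mp hh
    have hhh : h * h ∈ pCoreOf 2 H := by
      apply hchar _ (H.mul_mem hhH hhH)
      rw [Subgroup.mem_centralizer_iff]
      intro q hq
      have hcm := hhq q hq
      set c := h * q * h⁻¹ * q⁻¹ with hc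
      have e1 : h * q = c * q * h := by rw [hc]; group
      have e2 : h * c = c * h := hcen c hcm h hhH
      have e3 : c * c = 1 := hsq c hcm
      symm
      calc h * h * q = h * (h * q) := by group
        _ = h * (c * q * h) := by rw [e1]
        _ = (h * c) * q * h := by group
        _ = c * (h * q) * h := by rw [e2]; group
        _ = c * (c * q * h) * h := by rw [e1]
        _ = (c * c) * q * h * h := by group
        _ = q * (h * h) := by rw [e3]; group
    obtain ⟨k, hk⟩ := (pCoreOf_isPGroup 2 H) ⟨h * h, hhh⟩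
    have hk' : (h * h) ^ 2 ^ k = 1 := by
      have := congrArg Subtype.val hk
      simpa using this
    refine ⟨k + 1, ?_⟩
    apply Subtype.ext
    rw [Subgroup.coe_pow, Subgroup.coe_one]
    show h ^ 2 ^ (k + 1) = 1
    rw [pow_succ, mul_comm, pow_mul, pow_two]
    exact hk'
  have hDQ : D ≤ pCoreOf 2 H := le_pCoreOf hDH hDn hD2
  apply hUQ
  refine le_trans ?_ hDQ
  intro u hu
  rw [hDmem]
  refine ⟨hUH hu, fun q hq => ?_⟩
  apply hW
  refine ⟨?_, ?_⟩
  · have h1 : q * u⁻¹ * q⁻¹ ∈ U :=
      conj_mem_of_mem_normalizer (hUn (hQP hq)) (U.inv_mem hu)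
    have e : u * q * u⁻¹ * q⁻¹ = u * (q * u⁻¹ * q⁻¹) := by group
    rw [e]; exact U.mul_mem hu h1
  · have h1 : u * q * u⁻¹ ∈ pCoreOf 2 H :=
      conj_mem_of_mem_normalizer (le_normalizer_pCoreOf 2 H (hUH hu)) hq
    exact Subgroup.mul_mem _ h1 (Subgroup.inv_mem _ hq)

/-- a 2-subgroup inside `O₂(H)` centralizes the odd-order subgroups of `H` that it normalizes -/
theorem commute_of_le_pCoreOf [Finite G] {H K U : Subgroup G} (hK : Odd (Nat.card K))
    (hUK : U ≤ Subgroup.normalizer (K : Set G)) (hUQ : U ≤ pCoreOf 2 H)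
    {y u : G} (hyK : y ∈ K) (hyH : y ∈ H) (hu : u ∈ U) : u * y = y * u := by
  set c := y * u * y⁻¹ * u⁻¹ with hc
  have hcQ : c ∈ pCoreOf 2 H := by
    have h1 : y * u * y⁻¹ ∈ pCoreOf 2 H :=
      conj_mem_of_mem_normalizer (le_normalizer_pCoreOf 2 H hyH) (hUQ hu)
    exact Subgroup.mul_mem _ h1 (Subgroup.inv_mem _ (hUQ hu))
  have hcK : c ∈ K := by
    have h1 : u * y⁻¹ * u⁻¹ ∈ K := conj_mem_of_mem_normalizer (hUK hu) (K.inv_mem hyK)
    have e : c = y * (u * y⁻¹ * u⁻¹) := by rw [hc]; group
    rw [e]; exact K.mul_mem hyK h1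
  have h1 : c = 1 := by
    obtain ⟨k, hk⟩ := (pCoreOf_isPGroup 2 H) ⟨c, hcQ⟩
    have hk' : c ^ 2 ^ k = 1 := by
      have := congrArg Subtype.val hk
      simpa using this
    have d1 : orderOf c ∣ 2 ^ k := orderOf_dvd_of_pow_eq_one hk'
    have d2 : orderOf c ∣ Nat.card K := Subgroup.orderOf_dvd_natCard K hcK
    have hcop : Nat.Coprime (2 ^ k) (Nat.card K) :=
      Nat.Coprime.pow_left k (Nat.coprime_two_left.mpr hK)
    have d3 := Nat.dvd_gcd d1 d2
    rw [hcop.gcd_eq_one] at d3
    exact orderOf_eq_one_iff.mp (Nat.dvd_one.mp d3)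
  have e : y * u = c * (u * y) := by rw [hc]; group
  rw [e, h1, one_mul]

/-- `Ω₁(Z(C_P(a))) ≤ U` when `Z(P)` is cyclic, `U = ⟨a, z⟩` with `z` central in `P`, and
`C_P(a)` has index 2 in `P`. -/
theorem omega_le [Finite G] {P U : Subgroup G} {a z x : G}
    (hcyc : IsCyclic ↥(P ⊓ Subgroup.centralizer (P : Set G)))
    (haU : a ∈ U) (hzU : z ∈ U) (hUP : U ≤ P)
    (ha2 : a * a = 1) (hz2 : z * z = 1) (hz1 : z ≠ 1) (haz : a * z = z * a)
    (hzP : ∀ y ∈ P, y * z = z * y)
    (hxP : x ∈ P) (hxa : x * a * x⁻¹ = a * z)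
    (hidx : ∀ y ∈ P, y * a ≠ a * y → x⁻¹ * y ∈ P ⊓ Subgroup.centralizer ({a} : Set G))
    {e : G} (heP : e ∈ P ⊓ Subgroup.centralizer ({a} : Set G))
    (hec : ∀ y ∈ P ⊓ Subgroup.centralizer ({a} : Set G), y * e = e * y) (he2 : e * e = 1) :
    e ∈ U := by
  -- notation
  have hmem : ∀ y, y ∈ P ⊓ Subgroup.centralizer ({a} : Set G) ↔ y ∈ P ∧ y * a = a * y := by
    intro y
    rw [Subgroup.mem_inf, Subgroup.mem_centralizer_iff]
    constructor
    · rintro ⟨h1, h2⟩
      exact ⟨h1, (h2 a rfl).symm⟩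
    · rintro ⟨h1, h2⟩
      exact ⟨h1, fun b hb => by rw [Set.mem_singleton_iff.mp hb]; exact h2.symm⟩
  have hzP₀ : z ∈ P ⊓ Subgroup.centralizer ({a} : Set G) := (hmem z).mpr ⟨hUP hzU, haz.symm⟩
  have haP₀ : a ∈ P ⊓ Subgroup.centralizer ({a} : Set G) := (hmem a).mpr ⟨hUP haU, rfl⟩
  have hxz : x * z = z * x := hzP x hxP
  have hxinv : x⁻¹ * a * x = a * z := by
    -- from `x a x⁻¹ = a z`: `a = x⁻¹ (a z) x = (x⁻¹ a x) z`
    have h1 : a = x⁻¹ * (a * z) * x := by rw [← hxa]; group
    have h2 : x⁻¹ * (a * z) * x = (x⁻¹ * a * x) * z := by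
      have : z * x = x * z := hxz.symm
      calc x⁻¹ * (a * z) * x = x⁻¹ * a * (z * x) := by group
        _ = x⁻¹ * a * (x * z) := by rw [this]
        _ = (x⁻¹ * a * x) * z := by group
    have h3 : a * z = (x⁻¹ * a * x) * (z * z) := by rw [← mul_assoc, ← h2, ← h1]
    rw [hz2, mul_one] at h3
    exact h3.symm
  -- `x` and `x⁻¹` normalize `P₀`
  have hnorm : ∀ y ∈ P ⊓ Subgroup.centralizer ({a} : Set G),
      x * y * x⁻¹ ∈ P ⊓ Subgroup.centralizer ({a} : Set G) := by
    intro y hy
    obtain ⟨hyP, hya⟩ := (hmem y).mp hy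
    rw [hmem]
    refine ⟨P.mul_mem (P.mul_mem hxP hyP) (P.inv_mem hxP), ?_⟩
    have hyz : y * z = z * y := hzP y hyP
    have h1 : y * (a * z) = (a * z) * y := by
      rw [← mul_assoc, hya, mul_assoc, hyz, ← mul_assoc]
    calc x * y * x⁻¹ * a = x * (y * (x⁻¹ * a * x)) * x⁻¹ := by group
      _ = x * (y * (a * z)) * x⁻¹ := by rw [hxinv]
      _ = x * ((a * z) * y) * x⁻¹ := by rw [h1]
      _ = (x * (a * z) * x⁻¹) * (x * y * x⁻¹) := by group
      _ = (x * a * x⁻¹ * (x * z * x⁻¹)) * (x * y * x⁻¹) := by group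
      _ = (a * z * z) * (x * y * x⁻¹) := by
          rw [hxa]
          have : x * z * x⁻¹ = z := by rw [hxz]; group
          rw [this]
      _ = a * (x * y * x⁻¹) := by rw [mul_assoc a z z, hz2, mul_one]
  have hnorm' : ∀ y ∈ P ⊓ Subgroup.centralizer ({a} : Set G),
      x⁻¹ * y * x ∈ P ⊓ Subgroup.centralizer ({a} : Set G) := by
    intro y hy
    obtain ⟨hyP, hya⟩ := (hmem y).mp hy
    rw [hmem]
    refine ⟨P.mul_mem (P.mul_mem (P.inv_mem hxP) hyP) hxP, ?_⟩
    have hyz : y * z = z * y := hzP y hyP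
    have h1 : y * (a * z) = (a * z) * y := by
      rw [← mul_assoc, hya, mul_assoc, hyz, ← mul_assoc]
    have hxz' : x⁻¹ * z * x = z := by
      have : z * x = x * z := hxz.symm
      rw [mul_assoc, this]; group
    calc x⁻¹ * y * x * a = x⁻¹ * (y * (x * a * x⁻¹)) * x := by group
      _ = x⁻¹ * (y * (a * z)) * x := by rw [hxa]
      _ = x⁻¹ * ((a * z) * y) * x := by rw [h1]
      _ = (x⁻¹ * a * x) * (x⁻¹ * z * x) * (x⁻¹ * y * x) := by group
      _ = (a * z * z) * (x⁻¹ * y * x) := by rw [hxinv, hxz']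
      _ = a * (x⁻¹ * y * x) := by rw [mul_assoc a z z, hz2, mul_one]
  have hxnot : x * a ≠ a * x := by
    intro h
    have h1 : x * a * x⁻¹ = a := by rw [h]; group
    rw [hxa] at h1
    apply hz1
    have : a * z = a * 1 := by rw [mul_one]; exact h1
    exact mul_left_cancel this
  have hxx : x * x ∈ P ⊓ Subgroup.centralizer ({a} : Set G) := by
    -- `x⁻¹ * x⁻¹ ∈ P₀` since `x⁻¹` does not centralize `a`
    have h1 : x⁻¹ * a ≠ a * x⁻¹ := by
      intro h
      apply hxnot
      calc x * a = x * (a * x⁻¹) * x := by group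
        _ = x * (x⁻¹ * a) * x := by rw [h]
        _ = a * x := by group
    have h2 := hidx x⁻¹ (P.inv_mem hxP) h1
    have h3 := Subgroup.inv_mem _ h2
    have e : (x⁻¹ * x⁻¹)⁻¹ = x * x := by rw [mul_inv_rev, inv_inv]
    rwa [e] at h3
  -- fixed points of `x` in `Ω₁(Z(P₀))` lie in `{1, z}`
  have hfix : ∀ f, f ∈ P ⊓ Subgroup.centralizer ({a} : Set G) →
      (∀ y ∈ P ⊓ Subgroup.centralizer ({a} : Set G), y * f = f * y) → f * f = 1 →
      x * f = f * x → f = 1 ∨ f = z := by
    intro f hf hfc hf2 hxf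
    have hfP : f ∈ P := ((hmem f).mp hf).1
    have hfZ : f ∈ P ⊓ Subgroup.centralizer (P : Set G) := by
      refine Subgroup.mem_inf.mpr ⟨hfP, ?_⟩
      rw [Subgroup.mem_centralizer_iff]
      intro y hy
      by_cases hya : y * a = a * y
      · exact hfc y ((hmem y).mpr ⟨hy, hya⟩)
      · have h1 := hfc _ (hidx y hy hya)
        calc y * f = x * (x⁻¹ * y * f) := by group
          _ = x * (f * (x⁻¹ * y)) := by rw [h1]
          _ = (x * f) * (x⁻¹ * y) := by group
          _ = (f * x) * (x⁻¹ * y) := by rw [hxf]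
          _ = f * y := by group
    have hzZ : z ∈ P ⊓ Subgroup.centralizer (P : Set G) := by
      refine Subgroup.mem_inf.mpr ⟨hUP hzU, ?_⟩
      rw [Subgroup.mem_centralizer_iff]
      exact fun y hy => hzP y hy
    have h := eq_of_sq_cyclic (Z := ↥(P ⊓ Subgroup.centralizer (P : Set G)))
      (e := ⟨f, hfZ⟩) (z := ⟨z, hzZ⟩) (Subtype.ext hf2) (Subtype.ext hz2)
      (fun h => hz1 (congrArg Subtype.val h))
    rcases h with h | h
    · left; exact congrArg Subtype.val h
    · right; exact congrArg Subtype.val h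
  -- the element `f = e * x e x⁻¹`
  have hσ : x * e * x⁻¹ ∈ P ⊓ Subgroup.centralizer ({a} : Set G) := hnorm e heP
  have hσc : ∀ y ∈ P ⊓ Subgroup.centralizer ({a} : Set G),
      y * (x * e * x⁻¹) = (x * e * x⁻¹) * y := by
    intro y hy
    have h1 := hec _ (hnorm' y hy)
    calc y * (x * e * x⁻¹) = x * ((x⁻¹ * y * x) * e) * x⁻¹ := by group
      _ = x * (e * (x⁻¹ * y * x)) * x⁻¹ := by rw [h1]
      _ = (x * e * x⁻¹) * y := by group
  have hσ2 : (x * e * x⁻¹) * (x * e * x⁻¹) = 1 := by
    calc (x * e * x⁻¹) * (x * e * x⁻¹) = x * (e * e) * x⁻¹ := by group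
      _ = 1 := by rw [he2]; group
  have hcomm : (x * e * x⁻¹) * e = e * (x * e * x⁻¹) := hec _ hσ
  have hxxe : (x * x) * e = e * (x * x) := hec _ hxx
  set f := e * (x * e * x⁻¹) with hf
  have hfP₀ : f ∈ P ⊓ Subgroup.centralizer ({a} : Set G) := Subgroup.mul_mem _ heP hσ
  have hfc : ∀ y ∈ P ⊓ Subgroup.centralizer ({a} : Set G), y * f = f * y := by
    intro y hy
    rw [hf, ← mul_assoc, hec y hy, mul_assoc, hσc y hy, ← mul_assoc]
  have hf2 : f * f = 1 := by
    calc f * f = e * ((x * e * x⁻¹) * e) * (x * e * x⁻¹) := by rw [hf]; group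
      _ = e * (e * (x * e * x⁻¹)) * (x * e * x⁻¹) := by rw [hcomm]
      _ = (e * e) * ((x * e * x⁻¹) * (x * e * x⁻¹)) := by group
      _ = 1 := by rw [he2, hσ2, one_mul]
  have hxf : x * f = f * x := by
    have h1 : x * (x * e * x⁻¹) * x⁻¹ = e := by
      calc x * (x * e * x⁻¹) * x⁻¹ = ((x * x) * e) * (x⁻¹ * x⁻¹) := by group
        _ = (e * (x * x)) * (x⁻¹ * x⁻¹) := by rw [hxxe]
        _ = e := by group
    have h2 : x * f * x⁻¹ = f := by
      calc x * f * x⁻¹ = (x * e * x⁻¹) * (x * (x * e * x⁻¹) * x⁻¹) := by rw [hf]; group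
        _ = (x * e * x⁻¹) * e := by rw [h1]
        _ = f := by rw [hcomm]
    calc x * f = (x * f * x⁻¹) * x := by group
      _ = f * x := by rw [h2]
  rcases hfix f hfP₀ hfc hf2 hxf with h1 | h1
  · -- `x e x⁻¹ = e`
    have h2 : x * e * x⁻¹ = e := by
      have : e * (x * e * x⁻¹) = e * e := by rw [he2]; exact h1
      exact mul_left_cancel this
    have h3 : x * e = e * x := by
      calc x * e = (x * e * x⁻¹) * x := by group
        _ = e * x := by rw [h2]
    rcases hfix e heP hec he2 h3 with h4 | h4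
    · rw [h4]; exact U.one_mem
    · rw [h4]; exact hzU
  · -- `e * x e x⁻¹ = z`; pass to `e * a`
    have hea : e * a = a * e := (hec a haP₀).symm
    have hez : e * z = z * e := (hec z hzP₀).symm
    have h2 : x * e * x⁻¹ = e * z := by
      have : e * (x * e * x⁻¹) = e * (e * z) := by rw [← mul_assoc e e z, he2, one_mul]; exact h1
      exact mul_left_cancel this
    have hgP₀ : e * a ∈ P ⊓ Subgroup.centralizer ({a} : Set G) := Subgroup.mul_mem _ heP haP₀
    have hgc : ∀ y ∈ P ⊓ Subgroup.centralizer ({a} : Set G), y * (e * a) = (e * a) * y := by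
      intro y hy
      have hya : y * a = a * y := ((hmem y).mp hy).2
      rw [← mul_assoc, hec y hy, mul_assoc, hya, ← mul_assoc]
    have hg2 : (e * a) * (e * a) = 1 := by
      calc (e * a) * (e * a) = e * (a * e) * a := by group
        _ = e * (e * a) * a := by rw [hea]
        _ = (e * e) * (a * a) := by group
        _ = 1 := by rw [he2, ha2, one_mul]
    have hxg : x * (e * a) = (e * a) * x := by
      have h3 : x * (e * a) * x⁻¹ = e * a := by
        calc x * (e * a) * x⁻¹ = (x * e * x⁻¹) * (x * a * x⁻¹) := by group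
          _ = (e * z) * (a * z) := by rw [h2, hxa]
          _ = e * (z * a) * z := by group
          _ = e * (a * z) * z := by rw [haz]
          _ = e * a * (z * z) := by group
          _ = e * a := by rw [hz2, mul_one]
      calc x * (e * a) = (x * (e * a) * x⁻¹) * x := by group
        _ = (e * a) * x := by rw [h3]
    rcases hfix (e * a) hgP₀ hgc hg2 hxg with h4 | h4
    · -- `e = a`
      have : e = a := by
        have h5 : e * a = a * a := by rw [ha2]; exact h4
        exact mul_right_cancel h5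
      rw [this]; exact haU
    · -- `e = z * a`
      have : e = z * a := by
        have h5 : e * a = (z * a) * a := by rw [mul_assoc, ha2, mul_one]; exact h4
        exact mul_right_cancel h5
      rw [this]; exact U.mul_mem hzU haU

theorem centralizer_le_normalizer_zpowers (a : G) :
    Subgroup.centralizer ({a} : Set G) ≤ Subgroup.normalizer (Subgroup.zpowers a : Set G) := by
  apply le_normalizer_of_conj
  intro g hg n hn
  obtain ⟨k, rfl⟩ := Subgroup.mem_zpowers_iff.mp hn
  have h1 : Commute g a := ((Subgroup.mem_centralizer_iff.mp hg) a rfl).symm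
  have h2 : Commute g (a ^ k) := h1.zpow_right k
  have : g * a ^ k * g⁻¹ = a ^ k := by rw [h2.eq]; group
  rw [this]; exact Subgroup.zpow_mem_zpowers a k

theorem commute_of_mem_normalizer_zpowers {a h : G} (ha2 : a * a = 1) (ha1 : a ≠ 1)
    (hh : h ∈ Subgroup.normalizer (Subgroup.zpowers a : Set G)) : h * a = a * h := by
  have h1 : h * a * h⁻¹ ∈ Subgroup.zpowers a :=
    conj_mem_of_mem_normalizer hh (Subgroup.mem_zpowers a)
  rcases mem_zpowers_invol ha2 h1 with h2 | h2
  · exfalso; apply ha1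
    have : a = h⁻¹ * (h * a * h⁻¹) * h := by group
    rw [this, h2]; group
  · calc h * a = (h * a * h⁻¹) * h := by group
      _ = a * h := by rw [h2]

/-- A four-group `U` normal in a Sylow 2-subgroup `P` of a group of characteristic 2 type, central
in `P` if `Z(P)` is not cyclic, centralizes every subgroup of odd order that it normalizes. -/
theorem main [Finite G] (h2 : Cfsg.IsCharacteristicTwoType G)
    (P : Sylow 2 G) (U : Subgroup G) (hUP : U ≤ (P : Subgroup G))
    (hUn : (P : Subgroup G) ≤ Subgroup.normalizer (U : Set G))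
    (hU4 : IsKleinFour ↥U)
    (hUZ : ¬ IsCyclic ↥((P : Subgroup G) ⊓ Subgroup.centralizer ((P : Subgroup G) : Set G)) →
      U ≤ Subgroup.centralizer ((P : Subgroup G) : Set G))
    (K : Subgroup G) (hK : Odd (Nat.card K)) (hUK : U ≤ Subgroup.normalizer (K : Set G)) :
    U ≤ Subgroup.centralizer (K : Set G) := by
  haveI : Fact (Nat.Prime 2) := ⟨Nat.prime_two⟩
  have hcard : Nat.card U = 4 := IsKleinFour.card_four
  haveI : IsMulCommutative ↥U := IsKleinFour.isMulCommutative
  have hnc : ¬ IsCyclic ↥U := IsKleinFour.not_isCyclic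
  have hUsq : ∀ u ∈ U, u * u = 1 := by
    intro u hu
    have := IsKleinFour.mul_self (⟨u, hu⟩ : U)
    exact congrArg Subtype.val this
  have hUcomm : ∀ u ∈ U, ∀ v ∈ U, u * v = v * u := fun u hu v hv => setLike_mul_comm hu hv
  have hcop : (Nat.card U).Coprime (Nat.card K) := by
    rw [hcard]
    have h1 : Nat.Coprime 2 (Nat.card K) := Nat.coprime_two_left.mpr hK
    have h3 : Nat.Coprime (2 ^ 2) (Nat.card K) := Nat.Coprime.pow_left 2 h1
    exact h3
  have hgen := Cfsg.Agent.S0058.result U K hnc hUK hcop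
  have key : ∀ a ∈ U, a ≠ 1 →
      U ≤ pCoreOf 2 (Subgroup.normalizer (Subgroup.zpowers a : Set G)) := by
    intro a haU ha1
    have ha2 : a * a = 1 := hUsq a haU
    have hord : orderOf a = 2 := orderOf_eq_prime (by rw [pow_two]; exact ha2) ha1
    have hzp2 : IsPGroup 2 (Subgroup.zpowers a) :=
      IsPGroup.of_card (n := 1) (by rw [Nat.card_zpowers, hord]; rfl)
    have hzp1 : Subgroup.zpowers a ≠ ⊥ := by
      intro h; apply ha1; exact Subgroup.zpowers_eq_bot.mp h
    have hchar := hchar_of_char2 h2 hzp2 hzp1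
    have hHa : ∀ h ∈ Subgroup.normalizer (Subgroup.zpowers a : Set G), h * a = a * h :=
      fun h hh => commute_of_mem_normalizer_zpowers ha2 ha1 hh
    have hCH := centralizer_le_normalizer_zpowers a
    have hUH : U ≤ Subgroup.normalizer (Subgroup.zpowers a : Set G) := by
      intro u hu
      apply hCH
      rw [Subgroup.mem_centralizer_iff]
      intro b hb
      rw [Set.mem_singleton_iff.mp hb]
      exact hUcomm a haU u hu
    by_cases hac : ∀ x ∈ (P : Subgroup G), x * a = a * x
    · have hPH : (P : Subgroup G) ≤ Subgroup.normalizer (Subgroup.zpowers a : Set G) := by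
        intro x hx
        apply hCH
        rw [Subgroup.mem_centralizer_iff]
        intro b hb
        rw [Set.mem_singleton_iff.mp hb]
        exact (hac x hx).symm
      exact le_pCoreOf_of_central hchar hHa ha2 ha1 haU (isSyl_of_sylow_le P hPH) hUP hUn hcard
    · push_neg at hac
      obtain ⟨x, hxP, hxa⟩ := hac
      have hcyc : IsCyclic
          ↥((P : Subgroup G) ⊓ Subgroup.centralizer ((P : Subgroup G) : Set G)) := by
        by_contra h
        have h1 := hUZ h haU
        exact hxa ((Subgroup.mem_centralizer_iff.mp h1) x hxP)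
      haveI : (U.subgroupOf (P : Subgroup G)).Normal :=
        Subgroup.normal_subgroupOf_of_le_normalizer hUn
      have hne : U.subgroupOf (P : Subgroup G) ≠ ⊥ := by
        intro h
        have h1 : (⟨a, hUP haU⟩ : ↥(P : Subgroup G)) ∈ U.subgroupOf (P : Subgroup G) :=
          Subgroup.mem_subgroupOf.mpr haU
        rw [h, Subgroup.mem_bot] at h1
        exact ha1 (congrArg Subtype.val h1)
      obtain ⟨zz, hzzU, hzz1, hzzc⟩ := Cfsg.Agent.H32.exists_mem_center_of_normal
        P.isPGroup' (U.subgroupOf (P : Subgroup G)) hne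
      obtain ⟨z, hzdef⟩ : ∃ z : G, z = (zz : G) := ⟨_, rfl⟩
      have hzU : z ∈ U := by rw [hzdef]; exact Subgroup.mem_subgroupOf.mp hzzU
      have hz1 : z ≠ 1 := by
        rw [hzdef]; exact fun h => hzz1 (Subtype.ext h)
      have hzP : ∀ y ∈ (P : Subgroup G), y * z = z * y := by
        intro y hy
        have := (Subgroup.mem_center_iff.mp hzzc) ⟨y, hy⟩
        rw [hzdef]
        exact congrArg Subtype.val this
      have hz2 : z * z = 1 := hUsq z hzU
      have haz : a * z = z * a := hUcomm a haU z hzU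
      have hza : z ≠ a := by
        intro h
        apply hxa
        rw [← h]
        exact hzP x hxP
      have hU_elts : ∀ u ∈ U, u = 1 ∨ u = a ∨ u = z ∨ u = a * z := by
        intro u hu
        by_cases h1 : u = 1
        · exact Or.inl h1
        by_cases h2' : u = a
        · exact Or.inr (Or.inl h2')
        by_cases h3 : u = z
        · exact Or.inr (Or.inr (Or.inl h3))
        right; right; right
        have := IsKleinFour.eq_mul_of_ne_all (G := ↥U) (x := ⟨a, haU⟩) (y := ⟨z, hzU⟩)
          (z := ⟨u, hu⟩)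
          (fun h => ha1 (congrArg Subtype.val h)) (fun h => hz1 (congrArg Subtype.val h))
          (fun h => hza (congrArg Subtype.val h).symm) (fun h => h1 (congrArg Subtype.val h))
          (fun h => h2' (congrArg Subtype.val h)) (fun h => h3 (congrArg Subtype.val h))
        exact congrArg Subtype.val this
      have hconj : ∀ y ∈ (P : Subgroup G), y * a ≠ a * y → y * a * y⁻¹ = a * z := by
        intro y hy hya
        have h1 : y * a * y⁻¹ ∈ U := conj_mem_of_mem_normalizer (hUn hy) haU
        rcases hU_elts _ h1 with h | h | h | h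
        · exfalso; apply ha1
          have : a = y⁻¹ * (y * a * y⁻¹) * y := by group
          rw [this, h]; group
        · exfalso; apply hya
          calc y * a = (y * a * y⁻¹) * y := by group
            _ = a * y := by rw [h]
        · exfalso; apply hza
          have e : a = y⁻¹ * (y * a * y⁻¹) * y := by group
          rw [e, h]
          have : z * y = y * z := (hzP y hy).symm
          calc z = y⁻¹ * (y * z) := by group
            _ = y⁻¹ * (z * y) := by rw [this]
            _ = y⁻¹ * z * y := by group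
        · exact h
      have hidx : ∀ y ∈ (P : Subgroup G), y * a ≠ a * y →
          x⁻¹ * y ∈ (P : Subgroup G) ⊓ Subgroup.centralizer ({a} : Set G) := by
        intro y hy hya
        refine Subgroup.mem_inf.mpr
          ⟨Subgroup.mul_mem _ (Subgroup.inv_mem _ hxP) hy, ?_⟩
        rw [Subgroup.mem_centralizer_iff]
        intro b hb
        rw [Set.mem_singleton_iff.mp hb]
        have h1 := hconj y hy hya
        have h2' := hconj x hxP hxa
        have h3 : y * a * y⁻¹ = x * a * x⁻¹ := by rw [h1, h2']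
        calc a * (x⁻¹ * y) = x⁻¹ * (x * a * x⁻¹) * y := by group
          _ = x⁻¹ * (y * a * y⁻¹) * y := by rw [h3]
          _ = x⁻¹ * y * a := by group
      have hP₀U : ∀ y ∈ (P : Subgroup G) ⊓ Subgroup.centralizer ({a} : Set G), ∀ u ∈ U,
          y * u = u * y := by
        intro y hy u hu
        obtain ⟨hyP, hyc⟩ := Subgroup.mem_inf.mp hy
        have hya : y * a = a * y := ((Subgroup.mem_centralizer_iff.mp hyc) a rfl).symm
        have hyz : y * z = z * y := hzP y hyP
        rcases hU_elts u hu with h | h | h | h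
        · rw [h]; simp
        · rw [h]; exact hya
        · rw [h]; exact hyz
        · rw [h, ← mul_assoc, hya, mul_assoc, hyz, ← mul_assoc]
      have hUP₀ : U ≤ (P : Subgroup G) ⊓ Subgroup.centralizer ({a} : Set G) := by
        intro u hu
        refine Subgroup.mem_inf.mpr ⟨hUP hu, ?_⟩
        rw [Subgroup.mem_centralizer_iff]
        intro b hb
        rw [Set.mem_singleton_iff.mp hb]
        exact hUcomm a haU u hu
      have hP₀2 : IsPGroup 2 ↥((P : Subgroup G) ⊓ Subgroup.centralizer ({a} : Set G)) :=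
        P.isPGroup'.to_le inf_le_left
      have hP₀H : (P : Subgroup G) ⊓ Subgroup.centralizer ({a} : Set G) ≤
          Subgroup.normalizer (Subgroup.zpowers a : Set G) := inf_le_right.trans hCH
      obtain ⟨P₁, hP₁, hP₀P₁⟩ := exists_isSyl_ge hP₀2 hP₀H
      by_cases heq : P₁ = (P : Subgroup G) ⊓ Subgroup.centralizer ({a} : Set G)
      · intro u hu
        apply hchar u (hUH hu)
        rw [Subgroup.mem_centralizer_iff]
        intro q hq
        have hq' : q ∈ (P : Subgroup G) ⊓ Subgroup.centralizer ({a} : Set G) := by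
          rw [← heq]; exact hP₁.pCoreOf_le hq
        exact hP₀U q hq' u hu
      · have hlt : (P : Subgroup G) ⊓ Subgroup.centralizer ({a} : Set G) < P₁ :=
          lt_of_le_of_ne hP₀P₁ (Ne.symm heq)
        have hxP₀ : x ∉ (P : Subgroup G) ⊓ Subgroup.centralizer ({a} : Set G) := fun h =>
          hxa (((Subgroup.mem_centralizer_iff.mp (Subgroup.mem_inf.mp h).2) a rfl).symm)
        have hidx2 : (((P : Subgroup G) ⊓ Subgroup.centralizer ({a} : Set G)).subgroupOf
            (P : Subgroup G)).index = 2 := by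
          rw [Subgroup.index_eq_two_iff]
          refine ⟨⟨x, hxP⟩, fun b => ?_⟩
          by_cases hb : (b : G) ∈ (P : Subgroup G) ⊓ Subgroup.centralizer ({a} : Set G)
          · right
            refine ⟨Subgroup.mem_subgroupOf.mpr hb, fun hbx => ?_⟩
            have hbx' : (b : G) * x ∈ (P : Subgroup G) ⊓ Subgroup.centralizer ({a} : Set G) :=
              Subgroup.mem_subgroupOf.mp hbx
            apply hxP₀
            have := Subgroup.mul_mem _ (Subgroup.inv_mem _ hb) hbx'
            simpa using this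
          · left
            refine ⟨?_, fun h => hb (Subgroup.mem_subgroupOf.mp h)⟩
            rw [Subgroup.mem_subgroupOf]
            show (b : G) * x ∈ (P : Subgroup G) ⊓ Subgroup.centralizer ({a} : Set G)
            have hb' : (b : G)⁻¹ * a ≠ a * (b : G)⁻¹ := by
              intro h
              apply hb
              refine Subgroup.mem_inf.mpr ⟨b.2, ?_⟩
              rw [Subgroup.mem_centralizer_iff]
              intro c hc
              rw [Set.mem_singleton_iff.mp hc]
              calc a * (b : G) = (b : G) * ((b : G)⁻¹ * a) * (b : G) := by group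
                _ = (b : G) * (a * (b : G)⁻¹) * (b : G) := by rw [h]
                _ = (b : G) * a := by group
            have h1 := hidx _ (Subgroup.inv_mem _ b.2) hb'
            have h3 := Subgroup.inv_mem _ h1
            have e : (x⁻¹ * (b : G)⁻¹)⁻¹ = (b : G) * x := by rw [mul_inv_rev, inv_inv, inv_inv]
            rwa [e] at h3
        have hcardP : Nat.card (P : Subgroup G) =
            2 * Nat.card ↥((P : Subgroup G) ⊓ Subgroup.centralizer ({a} : Set G)) := by
          have h1 := (((P : Subgroup G) ⊓ Subgroup.centralizer ({a} : Set G)).subgroupOf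
            (P : Subgroup G)).card_mul_index
          rw [hidx2] at h1
          have h2' : Nat.card ↥(((P : Subgroup G) ⊓ Subgroup.centralizer ({a} : Set G)).subgroupOf
              (P : Subgroup G)) =
              Nat.card ↥((P : Subgroup G) ⊓ Subgroup.centralizer ({a} : Set G)) :=
            Nat.card_congr (Subgroup.subgroupOfEquivOfLe inf_le_left).toEquiv
          rw [h2'] at h1
          omega
        have hcardP₁ : Nat.card P₁ ≤ Nat.card (P : Subgroup G) := by
          obtain ⟨g, -, hg⟩ := (isSyl_top P).exists_conj_ge hP₁.2.1 le_top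
          have := Subgroup.card_le_of_le hg
          rwa [card_map_conj] at this
        have hP₁n : P₁ ≤ Subgroup.normalizer
            (((P : Subgroup G) ⊓ Subgroup.centralizer ({a} : Set G) : Subgroup G) : Set G) := by
          obtain ⟨x₁, hx₁P₁, hx₁P₀, hx₁n⟩ := exists_mem_normalizer_not_mem hP₁.2.1 hlt
          have hP₀T : (P : Subgroup G) ⊓ Subgroup.centralizer ({a} : Set G) ≤
              P₁ ⊓ Subgroup.normalizer
                (((P : Subgroup G) ⊓ Subgroup.centralizer ({a} : Set G) : Subgroup G) : Set G) :=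
            le_inf hP₀P₁ Subgroup.le_normalizer
          have hx₁T : x₁ ∈ P₁ ⊓ Subgroup.normalizer
              (((P : Subgroup G) ⊓ Subgroup.centralizer ({a} : Set G) : Subgroup G) : Set G) :=
            Subgroup.mem_inf.mpr ⟨hx₁P₁, hx₁n⟩
          have h1 : Nat.card ↥((P : Subgroup G) ⊓ Subgroup.centralizer ({a} : Set G)) <
              Nat.card ↥(P₁ ⊓ Subgroup.normalizer
                (((P : Subgroup G) ⊓ Subgroup.centralizer ({a} : Set G) : Subgroup G) : Set G)) := by
            by_contra h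
            push_neg at h
            have := Subgroup.eq_of_le_of_card_ge hP₀T h
            rw [← this] at hx₁T
            exact hx₁P₀ hx₁T
          have h2' := Subgroup.card_dvd_of_le hP₀T
          have h3 : 2 * Nat.card ↥((P : Subgroup G) ⊓ Subgroup.centralizer ({a} : Set G)) ≤
              Nat.card ↥(P₁ ⊓ Subgroup.normalizer
                (((P : Subgroup G) ⊓ Subgroup.centralizer ({a} : Set G) : Subgroup G) : Set G)) := by
            obtain ⟨k, hk⟩ := h2'
            have hpos : 0 < Nat.card ↥((P : Subgroup G) ⊓ Subgroup.centralizer ({a} : Set G)) :=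
              Nat.card_pos
            rcases k with _ | _ | k
            · rw [hk] at h1; simp at h1
            · rw [hk] at h1; simp at h1
            · rw [hk]; nlinarith
          have h4 := Subgroup.card_le_of_le (inf_le_left : P₁ ⊓ Subgroup.normalizer
            (((P : Subgroup G) ⊓ Subgroup.centralizer ({a} : Set G) : Subgroup G) : Set G) ≤ P₁)
          have h5 := Subgroup.eq_of_le_of_card_ge (inf_le_left : P₁ ⊓ Subgroup.normalizer
            (((P : Subgroup G) ⊓ Subgroup.centralizer ({a} : Set G) : Subgroup G) : Set G) ≤ P₁)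
            (by omega)
          rw [← h5]; exact inf_le_right
        have hP₁U : P₁ ≤ Subgroup.normalizer (U : Set G) := by
          apply le_normalizer_of_conj
          intro g hg u hu
          apply omega_le hcyc haU hzU hUP ha2 hz2 hz1 haz hzP hxP (hconj x hxP hxa) hidx
          · exact conj_mem_of_mem_normalizer (hP₁n hg) (hUP₀ hu)
          · intro y hy
            have h1 : g⁻¹ * y * g ∈ (P : Subgroup G) ⊓ Subgroup.centralizer ({a} : Set G) :=
              conj_mem_of_mem_normalizer' (hP₁n hg) hy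
            have h2' := hP₀U _ h1 u hu
            calc y * (g * u * g⁻¹) = g * ((g⁻¹ * y * g) * u) * g⁻¹ := by group
              _ = g * (u * (g⁻¹ * y * g)) * g⁻¹ := by rw [h2']
              _ = (g * u * g⁻¹) * y := by group
          · calc (g * u * g⁻¹) * (g * u * g⁻¹) = g * (u * u) * g⁻¹ := by group
              _ = 1 := by rw [hUsq u hu]; group
        exact le_pCoreOf_of_central hchar hHa ha2 ha1 haU hP₁ (hUP₀.trans hP₀P₁) hP₁U hcard
  have hKU : K ≤ Subgroup.centralizer (U : Set G) := by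
    rw [← hgen]
    apply iSup₂_le
    rintro a ⟨haU, ha1⟩
    intro y hy
    obtain ⟨hyK, hya⟩ := Subgroup.mem_inf.mp hy
    rw [Subgroup.mem_centralizer_iff]
    intro u hu
    have hyH : y ∈ Subgroup.normalizer (Subgroup.zpowers a : Set G) :=
      centralizer_le_normalizer_zpowers a hya
    exact commute_of_le_pCoreOf hK hUK (key a haU ha1) hyK hyH hu
  intro u hu
  rw [Subgroup.mem_centralizer_iff]
  intro k hk
  exact ((Subgroup.mem_centralizer_iff.mp (hKU hk)) u hu).symm

end Cfsg.Agent.Lib.Helper49.FourOdd
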