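import Mathlib
import Cfsg.Agent.Lib.Helper16.P2pStmt

set_option autoImplicit false

namespace Cfsg.Agent.Lib.Helper49.P2PRE2

open Cfsg.Agent.Lib.Helper16.P2pStmt MulAction Subgroup

universe u

/-- [PRE2] the elements of order `p` have no fixed points (Jordan). -/
theorem main : Pre2.{u} := by
  intro α _ _ p hpf hp3 hcard G hprim hnot P hP y hy hy1
  have hp : p.Prime := hpf.out
  by_contra hne
  obtain ⟨⟨a, ha⟩⟩ : Nonempty (fixedBy α y) := (Nat.card_ne_zero.mp hne).1
  -- order of y
  have hyord : orderOf y = p := by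
    have hdvd : orderOf y ∣ p := by
      have h1 : orderOf (⟨y, hy⟩ : (P : Subgroup G)) ∣ Nat.card (P : Subgroup G) :=
        orderOf_dvd_natCard _
      rw [hP] at h1
      have h2 : orderOf (⟨y, hy⟩ : (P : Subgroup G)) = orderOf y := Subgroup.orderOf_mk y hy
      rwa [h2] at h1
    rcases (Nat.dvd_prime hp).mp hdvd with h | h
    · exact absurd (orderOf_eq_one_iff.mp h) hy1
    · exact h
  have hgord : orderOf (y : Equiv.Perm α) = p := by
    rw [Subgroup.orderOf_coe]; exact hyord
  have hafix : (y : Equiv.Perm α) a = a := ha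
  have hsupp_lt : (y : Equiv.Perm α).support.card < 2 * orderOf (y : Equiv.Perm α) := by
    rw [hgord, ← hcard]
    have hnm : a ∉ (y : Equiv.Perm α).support := by
      rw [Equiv.Perm.notMem_support]; exact hafix
    have hss : (y : Equiv.Perm α).support ⊂ Finset.univ := by
      rw [Finset.ssubset_iff_of_subset (Finset.subset_univ _)]
      exact ⟨a, Finset.mem_univ _, hnm⟩
    exact Finset.card_lt_card hss
  have hcyc : (y : Equiv.Perm α).IsCycle :=
    Equiv.Perm.isCycle_of_prime_order (by rw [hgord]; exact hp) hsupp_lt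
  have hsupp : (y : Equiv.Perm α).support.card = p := by
    rw [← hcyc.orderOf, hgord]
  have htr := Equiv.Perm.isPretransitive_of_isCycle_mem (G := G) hcyc y.2
  have hp1 : 1 ≤ p := hp.one_lt.le
  have hsc : Set.ncard (((y : Equiv.Perm α).support : Set α)ᶜ) = (p - 1) + 1 := by
    apply Nat.add_left_cancel (n := Set.ncard (((y : Equiv.Perm α).support : Set α)))
    rw [Set.ncard_add_ncard_compl, Set.ncard_coe_finset, hsupp, Nat.card_eq_fintype_card, hcard]
    omega
  have hlt : (p - 1) + 2 < Nat.card α := by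
    rw [Nat.card_eq_fintype_card, hcard]; omega
  exact hnot (hprim.is_two_pretransitive hsc hlt htr)

end Cfsg.Agent.Lib.Helper49.P2PRE2
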